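import Cfsg.Agent.H4.P6.A
import Cfsg.Agent.H4.H44.B
import Cfsg.Agent.H8.M3D

/-! Block matrices and the centraliser of an involution. -/

set_option autoImplicit false
set_option linter.unusedSectionVars false
set_option linter.unusedVariables false
set_option linter.unusedSimpArgs false

namespace Cfsg.Agent.H4.P6

open Subgroup Matrix Cfsg.Agent.H8 Cfsg.Agent.H8.M3 Cfsg.Agent.H9.C2
open scoped MatrixGroups

universe u

variable {k Γ : Type*} {G : Type u} [Field k] [Group Γ] [Group G] {m : Γ →* M4 k} {π : Γ →* G}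
  {B C B' C' : M2 k} {a b g t u : Γ}

/-- block diagonal matrix -/
def bl (B C : M2 k) : M4 k :=
  mx (B 0 0) (B 0 1) 0 0 (B 1 0) (B 1 1) 0 0 0 0 (C 0 0) (C 0 1) 0 0 (C 1 0) (C 1 1)

theorem bl_mx (a b c d e f g h : k) : bl !![a, b; c, d] !![e, f; g, h] = mx a b 0 0 c d 0 0 0 0 e f 0 0 g h := rfl

theorem bl_mul : bl B C * bl B' C' = bl (B * B') (C * C') := by
  simp only [bl, mul_apply, Fin.sum_univ_two]; mxs

theorem bl_inj : bl B C = bl B' C' ↔ B = B' ∧ C = C' := by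
  refine ⟨fun h => ?_, fun ⟨a, b⟩ => by rw [a, b]⟩
  simp only [bl] at h; mxs at h
  constructor <;> ext i j <;> fin_cases i <;> fin_cases j <;> simp [h]

theorem bl_smul (c : k) : c • bl B C = bl (c • B) (c • C) := by
  simp only [bl, Matrix.smul_apply, smul_eq_mul]; mxs

theorem bl_one : bl (1 : M2 k) 1 = 1 := by simp [bl, mx_one]

theorem bl_zero : bl (0 : M2 k) 0 = 0 := by simp [bl, mx_zero]

theorem bl_add : bl B C + bl B' C' = bl (B + B') (C + C') := by
  simp only [bl, Matrix.add_apply]; mxs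

theorem bl_sc (c : k) : (c • 1 : M4 k) = bl (c • 1) (c • 1) := by rw [← bl_smul, bl_one]

theorem bl_sub : bl B C - bl B' C' = bl (B - B') (C - C') := by
  rw [sub_eq_iff_eq_add, bl_add, sub_add_cancel, sub_add_cancel]

theorem bl_det : (bl B C).det = B.det * C.det := by
  simp only [bl, det_fin_two]; mxs

theorem bl_pow (n : ℕ) : bl B C ^ n = bl (B ^ n) (C ^ n) := by
  induction n with
  | zero => simp [bl_one]
  | succ n ih => rw [pow_succ, ih, bl_mul, pow_succ, pow_succ]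

/-- the lower block -/
def lo (A : M4 k) : M2 k := !![A 2 2, A 2 3; A 3 2, A 3 3]

theorem lo_bl : lo (bl B C) = C := by ext i j; fin_cases i <;> fin_cases j <;> rfl

theorem D1 : bl (1 : M2 k) (-1) = mx 1 0 0 0 0 1 0 0 0 0 (-1) 0 0 0 0 (-1) := by simp [bl]

theorem bl_ex (h2 : (2 : k) ≠ 0) {A : M4 k} (h : A * bl 1 (-1) = bl 1 (-1) * A) : ∃ B C, A = bl B C := by
  obtain ⟨a0, a1, a2, a3, b0, b1, b2, b3, c0, c1, c2, c3, d0, d1, d2, d3, rfl⟩ := ex A
  rw [D1] at h; mxs at h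
  refine ⟨!![a0, a1; b0, b1], !![c2, c3; d2, d3], ?_⟩
  rw [bl_mx]; mxs
  and_intros <;> grind

theorem MB.eq_iff (h : MB m π) : π a = π b ↔ ∃ c : k, m a = c • m b := by
  rw [← mul_inv_eq_one, ← map_inv, ← map_mul, h.ker]
  refine exists_congr fun c => ⟨fun e => ?_, fun e => ?_⟩
  · rw [← inv_mul_cancel_right a b, map_mul, e, smul_mul_assoc, one_mul]
  · rw [map_mul, e, smul_mul_assoc, mul_inv']

theorem MB.cm (h : MB m π) : a * b = b * a ↔ m a * m b = m b * m a := by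
  rw [← h.inj.eq_iff, map_mul, map_mul]

theorem MB.cm' (h : MB m π) {a' : Γ} (e : π a = π a') (c : a' * b = b * a') : a * b = b * a := by
  obtain ⟨s, hs⟩ := h.eq_iff.1 e
  rw [h.cm, hs, smul_mul_assoc, mul_smul_comm, h.cm.1 c]

theorem sc4 {a b : k} (e : a • (1 : M4 k) = b • 1) : a = b := by
  simpa using congrFun (congrFun e 0) 0

/-- every lift of an element centralising `t` commutes with the lift of `t` -/
theorem MB.cen (h : MB m π) (tt : t * t = 1) (tu : u * t = t * u) {T : Subgroup G} {x : G} (odd : Odd T.index)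
    (hT : ∀ g ∈ T, g ∈ zpowers x ∨ π u * g ∈ zpowers x) (ht : π t ∈ zpowers x)
    (e : π g * π t = π t * π g) : g * t = t * g := by
  obtain ⟨x, rfl⟩ := h.surj x
  have k : ∀ {a}, π a ∈ zpowers (π x) → ∀ b, x * b = b * x → a * b = b * a := fun ⟨n, e⟩ b c =>
    h.cm' (a' := x ^ n) (by rw [map_zpow]; exact e.symm) (Commute.zpow_left c n)
  have xt : x * t = t * x := (k ht x rfl).symm
  have le : T.comap π ≤ centralizer {t} := fun a ha => mem_centralizer_singleton_iff.2 (by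
    rcases hT _ ha with e | e
    · exact k e t xt
    · have := k (a := u * a) (by rwa [map_mul]) t xt
      rwa [← mul_assoc, ← tu, mul_assoc, mul_assoc, mul_right_inj] at this)
  have := h.fin
  obtain ⟨c, hc⟩ := h.eq_iff.1 (show π (g * t) = π (t * g) by rw [map_mul, map_mul, e])
  have e1 : m (g * t * g⁻¹) = c • m t := by
    rw [map_mul, hc, smul_mul_assoc, ← map_mul, mul_inv_cancel_right]
  have c2 : c * c = 1 := sc4 (by
    have := congrArg₂ (· * ·) e1 e1
    rw [← map_mul, conj_mul, tt, smul_mul_smul_comm, ← map_mul, tt] at this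
    simpa using this.symm)
  have k2 : ∀ a, a * t = t * a ↔ a * (g * t * g⁻¹) = g * t * g⁻¹ * a := fun a => by
    rw [h.cm, h.cm, e1, mul_smul_comm, smul_mul_assoc,
      (smul_right_injective _ (show c ≠ 0 by rintro rfl; simp at c2)).eq_iff]
  refine mem_centralizer_singleton_iff.1 (H44.mem_of_sq (K := centralizer {t})
    ((index_comap_of_surjective T h.surj ▸ odd).of_dvd_nat (index_dvd_of_le le)) (mem_normalizer_iff.2 fun a => ?_) ?_)
  · simp only [SetLike.mem_coe, mem_centralizer_singleton_iff]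
    rw [k2 (g * a * g⁻¹), conj_mul, conj_mul, mul_left_inj, mul_right_inj]
  · rw [mem_centralizer_singleton_iff, ← mul_inv_eq_iff_eq_mul, ← h.inj.eq_iff,
      show g * g * t * (g * g)⁻¹ = g * (g * t * g⁻¹) * g⁻¹ by group, map_mul, map_mul, e1, mul_smul_comm,
      smul_mul_assoc, ← map_mul, ← map_mul, e1, smul_smul, c2, one_smul]

theorem sq_diag {A : GL (Fin 2) k} (h : Mono2 A) : ∃ a b : k, (A * A).1 = !![a, 0; 0, b] := by
  refine ⟨(A * A).1 0 0, (A * A).1 1 1, ?_⟩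
  rcases h with ⟨h1, h2⟩ | ⟨h1, h2⟩ <;> ext i j <;> fin_cases i <;> fin_cases j <;>
    simp [mul_apply, Fin.sum_univ_two, h1, h2]

theorem MB.dk [IsAlgClosed k] {p : ℕ} [hp : Fact p.Prime] [CharP k p] (h : MB m π) (mt : m t = bl 1 (-1)) :
    (∀ g g' B C B' C', m g = bl B C → m g' = bl B' C' → C * C * (C' * C') = C' * C' * (C * C)) ∨
    ∃ n, (n = 3 ∨ n = 4 ∨ n = 5) ∧ ∀ g B C, m g = bl B C →
      ∃ c : k, C ^ 2 = c • 1 ∨ C ^ 3 = c • 1 ∨ C ^ n = c • 1 := by
  have := h.fin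
  have ex : ∀ g : centralizer {t}, ∃ B C, m g = bl B C := fun g =>
    bl_ex h.two (mt ▸ h.cm.1 (mem_centralizer_singleton_iff.1 g.2))
  have mem : ∀ {g B C}, m g = bl B C → g ∈ centralizer {t} := fun e =>
    mem_centralizer_singleton_iff.2 (h.cm.2 (by rw [e, mt, bl_mul, bl_mul]; simp))
  let ψ : centralizer {t} →* GL (Fin 2) k := MonoidHom.toHomUnits
    { toFun g := lo (m g)
      map_one' := by rw [OneMemClass.coe_one, map_one, ← bl_one, lo_bl]
      map_mul' a b := by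
        obtain ⟨B, C, e⟩ := ex a
        obtain ⟨B', C', e'⟩ := ex b
        rw [Subgroup.coe_mul, map_mul, e, e', bl_mul, lo_bl, lo_bl, lo_bl] }
  have hψ : ∀ {g B C} (e : m g = bl B C), (ψ ⟨g, mem e⟩).1 = C := fun e => by
    change lo (m _) = _; rw [e, lo_bl]
  have po : Odd p := hp.out.odd_of_ne_two (by rintro rfl; exact h.two (CharP.cast_eq_zero k 2))
  have : Finite ((ProjGenLinGroup.mk : GL (Fin 2) k →* PGL(2, k)).comp ψ).range := Finite.Set.finite_range _
  rcases dickson_tame p ((ProjGenLinGroup.mk : GL (Fin 2) k →* PGL(2, k)).comp ψ).range (fun hd => by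
    obtain ⟨x, hx⟩ := exists_prime_orderOf_dvd_card' p (hd.trans (card_range_dvd _))
    have e1 : x.1 ^ p = 1 := by rw [← Subgroup.coe_pow, ← hx, pow_orderOf_eq_one]; rfl
    obtain ⟨B, C, e⟩ := ex x
    have e2 := congrArg m e1
    rw [map_pow, e, bl_pow, map_one, ← bl_one, bl_inj] at e2
    have n : ∀ B : M2 k, B ^ p = 1 → (B - 1) * (B - 1) = 0 := fun B e => sq_zero_of_nilp ⟨p, by
      rw [sub_pow_char_of_commute _ (Commute.one_right B), e, one_pow, sub_self]⟩
    have := h.quad1 x p 1 1 po e1 (by rw [e, one_smul, ← bl_one, bl_sub, bl_mul, n _ e2.1, n _ e2.2, bl_zero])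
    rw [show x = 1 from Subtype.ext this, orderOf_one] at hx
    exact hp.out.one_lt.ne hx) with ⟨γ, hγ⟩ | ⟨n, h1, h2⟩
  · refine Or.inl fun g g' B C B' C' e e' => ?_
    obtain ⟨a, b, f⟩ := sq_diag (hγ _ ⟨⟨g, mem e⟩, rfl⟩)
    obtain ⟨a', b', f'⟩ := sq_diag (hγ _ ⟨⟨g', mem e'⟩, rfl⟩)
    rw [← hψ e, ← hψ e']
    generalize ψ ⟨g, _⟩ = X at f
    generalize ψ ⟨g', _⟩ = Y at f'
    have : γ⁻¹ * X * γ * (γ⁻¹ * X * γ) * (γ⁻¹ * Y * γ * (γ⁻¹ * Y * γ)) =
        γ⁻¹ * Y * γ * (γ⁻¹ * Y * γ) * (γ⁻¹ * X * γ * (γ⁻¹ * X * γ)) := Units.ext (by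
      rw [Units.val_mul, Units.val_mul (γ⁻¹ * Y * γ * _), f, f']; simp [mul_comm])
    have : X * X * (Y * Y) = Y * Y * (X * X) := mul_right_cancel (b := γ) (by simpa [mul_assoc] using this)
    exact congrArg Units.val this
  · refine Or.inr ⟨n, by omega, fun g B C e => ?_⟩
    have k : ∀ i : ℕ, (⟨_, ⟨g, mem e⟩, rfl⟩ : ((ProjGenLinGroup.mk : GL (Fin 2) k →* PGL(2, k)).comp ψ).range) ^ i = 1 →
        C ^ i = (C ^ i) 1 1 • 1 := fun i f => by
      have f : ProjGenLinGroup.mk (ψ ⟨g, mem e⟩ ^ i) = 1 := by rw [map_pow]; exact congrArg Subtype.val f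
      rw [mk_eq_one_iff, Units.val_pow_eq_pow_val, hψ e] at f
      ext i j; fin_cases i <;> fin_cases j <;> simp [f]
    rcases h2 ⟨_, ⟨g, mem e⟩, rfl⟩ with f | f | f
    exacts [⟨_, Or.inl (k _ f)⟩, ⟨_, Or.inr (Or.inl (k _ f))⟩, ⟨_, Or.inr (Or.inr (k _ f))⟩]

end Cfsg.Agent.H4.P6
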