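import Cfsg.Agent.H2.L4F1
import Cfsg.Agent.LD.F4.If

/-! The generic case of `SL₄`: matrix form and the frame of a four-group with a cycling element. -/

set_option autoImplicit false
set_option linter.unusedSectionVars false
set_option linter.unusedVariables false
set_option linter.unusedSimpArgs false

namespace Cfsg.Agent.H4.P6

open Module Cfsg.Agent.H6.L4 Cfsg.Agent.H8.M3 Cfsg.Agent.H2.LF Cfsg.Agent.LD.F4
open Cfsg.Agent.H6.S4 (nc)
open Cfsg.Agent.H9.C2 (M4 mx)

universe u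

/-- the generic case in matrix form -/
structure MB {k Γ : Type*} {G : Type u} [Field k] [Group Γ] [Group G] (m : Γ →* M4 k) (π : Γ →* G) :
    Prop where
  fin : Finite Γ
  inj : Function.Injective m
  surj : Function.Surjective π
  ker : ∀ g, π g = 1 ↔ ∃ c : k, m g = c • 1
  det : ∀ g, (m g).det = 1
  sca : ∀ c : k, c ^ 4 = 1 → ∃ g, m g = c • 1
  quad1 : ∀ (g : Γ) (n : ℕ) (α β : k), Odd n → g ^ n = 1 → (m g - α • 1) * (m g - β • 1) = 0 → g = 1
  refl : ∀ (g : Γ) (c : k), m g * m g = c • 1 → c * c = 1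
  two : (2 : k) ≠ 0
  sn : SN G

variable {k V : Type*} [Field k] [AddCommGroup V] [Module k V] [FiniteDimensional k V]
  {G : Type u} [Group G] {P : Subgroup (End k V)ˣ} {π : P →* G} {g : (End k V)ˣ} {a b c d : V}

theorem toM (B : Basis (Fin 4) k V) (hB : ⇑B = ![a, b, c, d]) {X : End k V}
    {a0 a1 a2 a3 b0 b1 b2 b3 c0 c1 c2 c3 d0 d1 d2 d3 : k}
    (ha : X a = a0 • a + b0 • b + c0 • c + d0 • d) (hb : X b = a1 • a + b1 • b + c1 • c + d1 • d)
    (hc : X c = a2 • a + b2 • b + c2 • c + d2 • d) (hd' : X d = a3 • a + b3 • b + c3 • c + d3 • d) :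
    LinearMap.toMatrixAlgEquiv B X = mx a0 a1 a2 a3 b0 b1 b2 b3 c0 c1 c2 c3 d0 d1 d2 d3 := by
  have : X = Matrix.toLin B B (mx a0 a1 a2 a3 b0 b1 b2 b3 c0 c1 c2 c3 d0 d1 d2 d3) := by
    refine B.ext fun i => ?_
    rw [Matrix.toLin_self, Fin.sum_univ_four, hB]
    fin_cases i <;> simpa [mx]
  rw [this]
  exact LinearMap.toMatrix_toLin B B _

variable [IsAlgClosed k]

theorem refl' (h : Beta P π) (hg : g ∈ P) {c : k} (e : g.1 * g.1 = c • 1) : c * c = 1 := by
  by_cases ns : Sc g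
  · obtain ⟨d, hd⟩ := ns
    have := h.four hg hd
    rw [hd, smul_mul_smul_comm, one_mul] at e
    rw [← h.sc' e]; linear_combination this
  obtain ⟨α, rfl⟩ := IsAlgClosed.exists_eq_mul_self c
  have r1 := rk2 h hg ns α
  have r2 := rk2 h hg ns (-α)
  have le : LinearMap.range (g.1 - (-α) • 1) ≤ LinearMap.ker (g.1 - α • 1) := by
    rintro _ ⟨z, rfl⟩
    have := LinearMap.congr_fun e z
    simp only [End.mul_apply, LinearMap.smul_apply, End.one_apply] at this
    simp only [LinearMap.mem_ker, LinearMap.sub_apply, LinearMap.smul_apply, End.one_apply, map_sub,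
      map_smul, this]
    module
  have r3 := Submodule.finrank_mono le
  have r4 := (g.1 - α • 1).finrank_range_add_finrank_ker
  rw [h.dim] at r4
  have dt := det2 (X := g.1) (α := α) (β := -α) h.dim (U := LinearMap.ker (g.1 - α • 1)) (by omega)
    (fun v hv => by simpa [sub_eq_zero] using hv) fun v => le ⟨v, by simp⟩
  rw [h.det g hg] at dt
  linear_combination -dt

/-- the matrix of an element -/
noncomputable def mat (P : Subgroup (End k V)ˣ) (B : Basis (Fin 4) k V) : P →* M4 k :=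
  ((LinearMap.toMatrixAlgEquiv B : End k V →* M4 k).comp (Units.coeHom _)).comp P.subtype

theorem mat_ap (B : Basis (Fin 4) k V) (g : P) : mat P B g = LinearMap.toMatrixAlgEquiv B g.1.1 := rfl

theorem mat_sc (B : Basis (Fin 4) k V) (g : P) (c : k) : mat P B g = c • 1 ↔ g.1.1 = c • 1 := by
  rw [mat_ap, ← (LinearMap.toMatrixAlgEquiv B).injective.eq_iff, map_smul, map_one]

theorem mb (h : Beta P π) (B : Basis (Fin 4) k V) : MB (mat P B) π where
  fin := h.fin
  inj a b e := Subtype.ext (Units.ext ((LinearMap.toMatrixAlgEquiv B).injective e))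
  surj := h.surj
  ker g := by simp only [mat_sc]; exact h.ker g
  det g := (LinearMap.det_toMatrix B _).trans (h.det _ g.2)
  sca c e := ⟨⟨_, h.sc_mem (c := c) (by rintro rfl; simp at e) e⟩, (mat_sc _ _ _).2 rfl⟩
  quad1 g n α β hn e q := Subtype.ext (quad1 h g.2 hn (congrArg Subtype.val e) (α := α) (β := β)
    ((LinearMap.toMatrixAlgEquiv B).injective (by simpa [mat_ap] using q)))
  refl g c e := refl' h g.2 ((mat_sc B (g * g) c).1 (by rwa [map_mul]))
  two := h.two
  sn := h.sn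

theorem frame0 (hd : finrank k V = 4) (h2 : (2 : k) ≠ 0) {t u H : End k V} (tt : ∀ v, t (t v) = v)
    (uu : ∀ v, u (u v) = v) (tu : ∀ v, u (t v) = t (u v)) (ht : ∀ v, u (H v) = H (t v))
    (hu : ∀ v, t (H v) = H (t (u v))) (hh : ∀ v, H (H (H v)) = v) (ne : t ≠ u)
    (dt : LinearMap.det t = 1) (du : LinearMap.det u = 1) (dh : LinearMap.det H = 1) :
    ∃ B : Basis (Fin 4) k V, LinearMap.toMatrixAlgEquiv B t = mx 1 0 0 0 0 1 0 0 0 0 (-1) 0 0 0 0 (-1) ∧
      LinearMap.toMatrixAlgEquiv B u = mx 1 0 0 0 0 (-1) 0 0 0 0 1 0 0 0 0 (-1) ∧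
      LinearMap.toMatrixAlgEquiv B H = mx 1 0 0 0 0 0 0 1 0 1 0 0 0 0 1 0 := by
  have c2 : ∀ v : V, v + v = 0 → v = 0 := fun v e =>
    (smul_eq_zero.1 (show (2 : k) • v = 0 by rw [two_smul, e])).resolve_left h2
  obtain ⟨x, hx⟩ : ∃ x, x + t x - u x - t (u x) ≠ 0 := by
    by_contra! e
    refine ne (LinearMap.ext fun v => ?_)
    have e1 := congrArg H (e (H (H (t v))))
    have e2 := e (t v)
    have i1 : ∀ v, H (u v) = t (u (H v)) := fun v => by rw [ht, hu, ← tu, tt]
    simp only [map_add, map_sub, ← ht, ← hu, hh, map_zero, i1, tt, uu, tu] at e1 e2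
    exact sub_eq_zero.1 (c2 _ (by linear_combination (norm := module) e1 + e2))
  obtain ⟨b, hb⟩ : ∃ b, b = x + t x - u x - t (u x) := ⟨_, rfl⟩
  have tb : t b = b := by simp only [hb, map_add, map_sub, tt]; abel
  have ub : u b = -b := by simp only [hb, map_add, map_sub, tu, uu]; abel
  rw [← hb] at hx
  have tc : t (H b) = -H b := by rw [hu, ub, map_neg, tb, map_neg]
  have uc : u (H b) = H b := by rw [ht, tb]
  have td : t (H (H b)) = -H (H b) := by rw [hu, uc, tc, map_neg]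
  have ud : u (H (H b)) = -H (H b) := by rw [ht, tc, map_neg]
  have hc : H b ≠ 0 := fun e => hx (by rw [← hh b, e, map_zero, map_zero])
  have hd' : H (H b) ≠ 0 := fun e => hx (by rw [← hh b, e, map_zero])
  obtain ⟨z, hz⟩ := ext4 hd (a := b) (b := H b) (c := H (H b)) fun s r q e => by
    have e1 := congrArg t e
    have e2 := congrArg u e
    simp only [map_add, map_smul, tb, ub, tc, uc, td, ud, map_zero] at e1 e2
    obtain rfl : s = 0 := (smul_eq_zero.1 (c2 (s • b) (by linear_combination (norm := module) e + e1))).resolve_right hx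
    obtain rfl : r = 0 := (smul_eq_zero.1 (c2 (r • H b) (by linear_combination (norm := module) e + e2))).resolve_right hc
    simpa [hd'] using e
  obtain ⟨s, r, q, w, e⟩ := hz.span hd (t z)
  obtain ⟨s', r', q', w', e'⟩ := hz.span hd (u z)
  obtain rfl : w = 1 := by
    rw [hz.det hd (a0 := 1) (b0 := 0) (c0 := 0) (d0 := 0) (a1 := 0) (b1 := -1) (c1 := 0) (d1 := 0)
      (a2 := 0) (b2 := 0) (c2 := -1) (d2 := 0) (by simp [tb]) (by simp [tc]) (by simp [td]) e] at dt
    linear_combination dt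
  obtain rfl : w' = 1 := by
    rw [hz.det hd (a0 := -1) (b0 := 0) (c0 := 0) (d0 := 0) (a1 := 0) (b1 := 1) (c1 := 0) (d1 := 0)
      (a2 := 0) (b2 := 0) (c2 := -1) (d2 := 0) (by simp [ub]) (by simp [uc]) (by simp [ud]) e'] at du
    linear_combination du
  obtain ⟨a, ha⟩ : ∃ a, a = z + t z + u z + t (u z) := ⟨_, rfl⟩
  have ta : t a = a := by simp only [ha, map_add, tt]; abel
  have ua : u a = a := by simp only [ha, map_add, tu, uu]; abel
  have i4 : I4 k a b (H b) (H (H b)) := fun α β γ δ f => by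
    rw [ha, e', map_add, map_add, map_add, map_smul, map_smul, map_smul, map_smul, tb, tc, td, e] at f
    obtain ⟨f1, f2, f3, f4⟩ := hz (β + α * (2 * s + 2 * s')) (γ + α * 2 * r) (δ + α * 2 * q) (2 * 2 * α)
      (by linear_combination (norm := module) f)
    obtain rfl : α = 0 := by simpa [h2] using f4
    simpa using And.intro f1 (And.intro f2 f3)
  obtain ⟨α, β, γ, δ, f⟩ := i4.span hd (H a)
  have f1 : t (H a) = H a := by rw [hu, ua, ta]
  have f2 : u (H a) = H a := by rw [ht, ta]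
  rw [f] at f1 f2
  simp only [map_add, map_smul, ta, ua, tb, ub, tc, uc, td, ud, smul_neg, ← neg_smul] at f1 f2
  obtain rfl : β = 0 := by have := (i4.eq f2).2.1; grind
  obtain rfl : γ = 0 := by have := (i4.eq f1).2.2.1; grind
  obtain rfl : δ = 0 := by have := (i4.eq f1).2.2.2; grind
  obtain rfl : α = 1 := by
    rw [i4.det hd f (a1 := 0) (b1 := 0) (c1 := 1) (d1 := 0) (a2 := 0) (b2 := 0) (c2 := 0) (d2 := 1)
      (a3 := 0) (b3 := 1) (c3 := 0) (d3 := 0) (by simp) (by simp) (by simp [hh])] at dh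
    linear_combination dh
  have hB := coe_basisOfLinearIndependentOfCardEqFinrank i4.li (by simp [hd])
  exact ⟨_, toM _ hB (by simp [ta]) (by simp [tb]) (by simp [tc]) (by simp [td]),
    toM _ hB (by simp [ua]) (by simp [ub]) (by simp [uc]) (by simp [ud]),
    toM _ hB f (by simp) (by simp) (by simp [hh])⟩

/-- the frame -/
theorem frame (H : Beta P π) {t u h : G} (f : F1 (Yc π) t u) (h1 : h * t * h⁻¹ = u)
    (h2 : h * u * h⁻¹ = t * u) (h3 : h ^ 3 = 1) :
    ∃ (B : Basis (Fin 4) k V) (t' u' h' : P), π t' = t ∧ π u' = u ∧ π h' = h ∧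
      mat P B t' = mx 1 0 0 0 0 1 0 0 0 0 (-1) 0 0 0 0 (-1) ∧
      mat P B u' = mx 1 0 0 0 0 (-1) 0 0 0 0 1 0 0 0 0 (-1) ∧
      mat P B h' = mx 1 0 0 0 0 0 0 1 0 1 0 0 0 0 1 0 := by
  obtain ⟨h', rfl, hh⟩ := lift H.toSt (by decide : Odd 3) h3
  obtain ⟨x, y, rfl, hy, xy⟩ := f.y
  have hh' : h' ^ 3 = 1 := Subtype.ext hh
  have key : ∀ t' : P, π t' = π x → t' * t' = 1 → ∀ c : k,
      (t' * (h' * t' * h'⁻¹) * (h' * (h' * t' * h'⁻¹) * h'⁻¹)).1.1 = c • 1 → c = -1 ∨
      ∃ (B : Basis (Fin 4) k V) (t' u' h'' : P), π t' = π x ∧ π u' = u ∧ π h'' = π h' ∧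
      mat P B t' = mx 1 0 0 0 0 1 0 0 0 0 (-1) 0 0 0 0 (-1) ∧
      mat P B u' = mx 1 0 0 0 0 (-1) 0 0 0 0 1 0 0 0 0 (-1) ∧
      mat P B h'' = mx 1 0 0 0 0 0 0 1 0 1 0 0 0 0 1 0 := fun t' e tt c hc => by
    obtain ⟨u', hu⟩ : ∃ u', u' = h' * t' * h'⁻¹ := ⟨_, rfl⟩
    rw [← hu] at hc
    have pu : π u' = u := by rw [hu, map_mul, map_mul, map_inv, e, h1]
    have uu : u' * u' = 1 := by rw [hu, conj_mul, tt]; simp
    have tu : u' * t' = t' * u' := by
      obtain ⟨a, ha⟩ := H.eq_iff.1 e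
      obtain ⟨b, hb⟩ := H.eq_iff.1 (pu.trans hy.symm)
      exact Subtype.ext (Units.ext (by
        have := congrArg Units.val xy
        simp only [Subgroup.coe_mul, Units.val_mul] at this ⊢
        simp only [ha, hb, smul_mul_smul_comm, this, mul_comm a b]))
    obtain ⟨v, hv⟩ : ∃ v, v = h' * u' * h'⁻¹ := ⟨_, rfl⟩
    rw [← hv] at hc
    have h3' : h' * v * h'⁻¹ = t' := by
      rw [hv, hu]
      calc _ = h' ^ 3 * t' * (h' ^ 3)⁻¹ := by simp only [pow_succ, pow_zero]; group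
        _ = _ := by simp [hh']
    have vv : v * v = 1 := by rw [hv, conj_mul, uu]; simp
    have uv : u' * v = v * u' := by
      have : h' * t' * h'⁻¹ * (h' * u' * h'⁻¹) = h' * u' * h'⁻¹ * (h' * t' * h'⁻¹) := by
        rw [conj_mul, conj_mul, tu]
      rwa [← hu, ← hv] at this
    have tv : t' * v = v * t' := by
      have : h' * v * h'⁻¹ * (h' * u' * h'⁻¹) = h' * u' * h'⁻¹ * (h' * v * h'⁻¹) := by
        rw [conj_mul, conj_mul, uv]
      rwa [h3', ← hv] at this
    have c2 : c * c = 1 := H.sc' (by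
      rw [← one_mul (1 : End k V), ← smul_mul_smul_comm, ← hc, one_mul, one_smul, ← Units.val_mul,
        ← Subgroup.coe_mul, show t' * u' * v * (t' * u' * v) = 1 by
          calc _ = t' * (u' * (v * t')) * (u' * v) := by group
            _ = t' * t' * (u' * v * u' * v) := by rw [← tv, ← mul_assoc u', tu]; group
            _ = 1 := by rw [tt, uv, mul_assoc v, uu, mul_one, vv, one_mul]]; rfl)
    rcases mul_self_eq_one_iff.1 c2 with rfl | rfl
    · have e1 : t' * u' * v = 1 := Subtype.ext (Units.ext (by simpa using hc))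
      have ap : ∀ {a b : P}, a = b → ∀ v, a.1.1 v = b.1.1 v := fun e v => by rw [e]
      obtain ⟨B, b1, b2, b3⟩ := frame0 H.dim H.two (t := t'.1.1) (u := u'.1.1) (H := h'.1.1) (ap tt) (ap uu)
        (ap tu) (ap (a := u' * h') (b := h' * t') (by rw [hu]; group))
        (ap (a := t' * h') (b := h' * (t' * u')) (by
          rw [show t' * u' = v by rw [eq_inv_of_mul_eq_one_left e1, inv_eq_of_mul_eq_one_left vv], ← h3']; group))
        (ap (a := h' * (h' * h')) (b := 1) (by rw [← hh', pow_succ', sq]))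
        (fun e' => f.ne (by rw [← e, ← pu]; exact congrArg π (Subtype.ext (Units.ext e'))))
        (H.det _ t'.2) (H.det _ u'.2) (H.det _ h'.2)
      exact Or.inr ⟨B, t', u', h', e, pu, rfl, b1, b2, b3⟩
    · exact Or.inl rfl
  obtain ⟨c, hc⟩ := (H.ker (x * x)).1 (by rw [map_mul, f.it.1])
  obtain ⟨s, rfl⟩ := IsAlgClosed.exists_eq_mul_self c
  have s4 : s ^ 4 = 1 := by linear_combination refl' H x.2 hc
  have s0 : s ≠ 0 := by rintro rfl; simp at s4
  obtain ⟨t', e, tt⟩ : ∃ t' : P, π t' = π x ∧ t' * t' = 1 :=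
    ⟨⟨_, H.sc_mem s0 s4⟩ * x, H.eq_iff.2 ⟨s, by simp [sc_val]⟩, Subtype.ext (Units.ext (by
      have : x.1.1 * x.1.1 = (s * s) • 1 := hc
      simp only [Subgroup.coe_mul, nc k V, sc_val, this, smul_smul, OneMemClass.coe_one]
      rw [show s * (s * (s * s)) = 1 by linear_combination s4, one_smul]))⟩
  obtain ⟨c, hc⟩ := (H.ker (t' * (h' * t' * h'⁻¹) * (h' * (h' * t' * h'⁻¹) * h'⁻¹))).1 (by
    simp only [map_mul, map_inv, e, h1, h2]
    rw [← hy, ← map_mul, ← map_mul]
    nth_rw 2 [show x * y = y * x from Subtype.ext xy]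
    rw [map_mul, map_mul, map_mul, mul_assoc, ← mul_assoc (π y), hy, f.iu.1, one_mul, f.it.1])
  rcases key t' e tt c hc with rfl | a
  · refine (key (⟨-1, H.neg1⟩ * t') (e ▸ H.eq_iff.2 ⟨-1, by simp⟩) (Subtype.ext (by
      simpa using congrArg Subtype.val tt)) 1 ?_).resolve_left fun a => H.two (by linear_combination a)
    simp only [Subgroup.coe_mul, Subgroup.coe_inv, Units.val_mul, Units.val_neg, Units.val_one, neg_mul,
      mul_neg, one_mul, neg_neg] at hc ⊢
    rw [hc]; simp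
  · exact a

end Cfsg.Agent.H4.P6
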