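import Cfsg.Agent.H4.BS1
import Cfsg.Agent.H8.M3B

/-! Fusion of elements of order four in a semidihedral Sylow subgroup. -/

set_option autoImplicit false
set_option linter.unusedSectionVars false
set_option linter.unusedVariables false
set_option linter.unusedSimpArgs false

namespace Cfsg.Agent.H4.P6

open Subgroup Cfsg.Agent.H8.M3

universe u

variable {G : Type u} [Group G]

theorem inv_uniq {x : G} {a b : ℤ} (h1 : x ^ (2 * a) = 1) (h2 : x ^ a ≠ 1) (h3 : x ^ (2 * b) = 1)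
    (h4 : x ^ b ≠ 1) : x ^ a = x ^ b := by
  rw [Ne, ← orderOf_dvd_iff_zpow_eq_one] at h2 h4
  rw [← orderOf_dvd_iff_zpow_eq_one] at h1 h3
  rw [zpow_eq_zpow_iff_modEq, Int.modEq_iff_dvd]
  obtain ⟨s, hs⟩ := h1
  obtain ⟨r, hr⟩ := h3
  obtain ⟨s, rfl | rfl⟩ := Int.even_or_odd' s
  · exact absurd ⟨s, by linarith⟩ h2
  obtain ⟨r, rfl | rfl⟩ := Int.even_or_odd' r
  · exact absurd ⟨r, by linarith⟩ h4
  exact ⟨r - s, by linarith⟩

theorem nz {a b : ℤ} (h : Even (a - b)) : (-1 : ℂˣ) ^ a = (-1) ^ b := by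
  rw [show a = b + (a - b) by ring, zpow_add, h.neg_one_zpow, mul_one]

theorem sdG [Finite G] (hG : SN G) {t u x : G} (it : IsInv t) (iu : IsInv u)
    (cB : ∀ g, g * t = t * g → g * u = u * g → g * g = 1) {T : Subgroup G} (odd : Odd T.index)
    (p2 : IsPGroup 2 T) (hx : x ∈ T) (hT : ∀ g ∈ T, g ∈ zpowers x ∨ u * g ∈ zpowers x)
    (ht : t ∈ zpowers x) (sd : u * x * (u * x) = t) :
    ∃ w g : G, w * w * (w * w) = t ∧ w * w * u = u * t * (w * w) ∧ w * x = x * w ∧ g * t = t * g ∧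
      u * x = g * (w * w) * g⁻¹ := by
  obtain ⟨j, rfl⟩ := mem_zpowers_iff.1 ht
  have uu := iu.1
  have t1 := it.2
  have ui : u⁻¹ = u := inv_eq_of_mul_eq_one_left uu
  have od : ∀ a r : ℤ, Odd r → x ^ (a * r) = 1 → x ^ a = 1 := fun a r hr e => by
    obtain ⟨n, hn⟩ := p2 ⟨x, hx⟩
    have h1 : (orderOf x : ℤ) ∣ 2 ^ n := by
      exact_mod_cast orderOf_dvd_of_pow_eq_one (show x ^ 2 ^ n = 1 from congrArg Subtype.val hn)
    rw [← orderOf_dvd_iff_zpow_eq_one] at e ⊢
    exact ((Int.isCoprime_two_left.2 hr).pow_left.of_isCoprime_of_dvd_left h1).dvd_of_dvd_mul_right e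
  have j2 : x ^ (2 * j) = 1 := by rw [two_mul, zpow_add, it.1]
  have c1 : u * x * u⁻¹ = x ^ (j - 1) := by rw [ui, zpow_sub_one, ← sd]; group
  have cj : ∀ a : ℤ, x ^ a * u = u * x ^ ((j - 1) * a) := fun a => by
    rw [zpow_mul, ← c1, conj_zpow, ← mul_assoc, ← mul_assoc, uu, one_mul, ui]
  have xx : x ^ (2 : ℤ) ≠ 1 := fun e => by
    obtain ⟨s, rfl | rfl⟩ := Int.even_or_odd' j
    · exact t1 (by rw [zpow_mul, e, one_zpow])
    · rw [add_sub_cancel_right, zpow_mul, e, one_zpow] at c1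
      exact t1 (by rw [show x = 1 by simpa [mul_inv_eq_one] using c1, one_zpow])
  have nc : x * u ≠ u * x := fun e => xx (by
    rw [zpow_two]; exact cB x (Commute.self_zpow x j) e)
  obtain ⟨i, rfl⟩ : ∃ i, j = 4 * i := by
    obtain ⟨s, rfl | rfl⟩ := Int.even_or_odd' j
    · obtain ⟨s, rfl | rfl⟩ := Int.even_or_odd' s
      · exact ⟨s, by ring⟩
      · have := od 4 (2 * s + 1) (odd_two_mul_add_one s) (by rw [← j2]; congr 1; ring)
        rw [show 2 * (2 * s + 1) - 1 = 4 * s + 1 by ring, zpow_add, zpow_mul, this, one_zpow, one_mul,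
          zpow_one, mul_inv_eq_iff_eq_mul] at c1
        exact absurd c1.symm nc
    · exact absurd (od 2 _ (odd_two_mul_add_one s) j2) xx
  have ex : ∀ g : T, ∃ n : ℤ, g.1 = x ^ n ∨ g.1 = u * x ^ n := fun g => by
    rcases hT g g.2 with ⟨n, e⟩ | ⟨n, e⟩
    · exact ⟨n, Or.inl e.symm⟩
    · exact ⟨n, Or.inr (by simp only at e; rw [e, ← mul_assoc, uu, one_mul])⟩
  have par : ∀ (g : G) (a b : ℤ), (g = x ^ a ∨ g = u * x ^ a) → (g = x ^ b ∨ g = u * x ^ b) →
      Even (a - b) := fun g a b ha hb => by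
    have k1 : x ^ a = x ^ b → Even (a - b) := fun e => Int.not_odd_iff_even.1 fun h => xx (by
      have := od 1 (a - b) h (by rw [one_mul, zpow_sub, e, mul_inv_cancel])
      rw [zpow_one] at this; rw [this, one_zpow])
    have k2 : ∀ a b : ℤ, x ^ a ≠ u * x ^ b := fun a b e => nc (by
      rw [show u = x ^ (a - b) by rw [zpow_sub, e, mul_inv_cancel_right]]; exact Commute.self_zpow x _)
    rcases ha with rfl | rfl <;> rcases hb with e | e
    exacts [k1 e, absurd e (k2 _ _), absurd e.symm (k2 _ _), k1 (mul_left_cancel e)]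
  choose f hf using ex
  let φ : T →* ℂˣ := MonoidHom.mk' (fun g => (-1) ^ f g) fun a b => by
    rw [← zpow_add]
    refine nz ?_
    have := par _ _ (f a + f b) (hf (a * b))
    have h' := par _ _ ((4 * i - 1) * f a + f b) (hf (a * b))
    have k : Even (f (a * b) - ((4 * i - 1) * f a + f b)) → Even (f (a * b) - (f a + f b)) := fun e => by
      obtain ⟨r, e⟩ := e
      exact ⟨r + (2 * i - 1) * f a, by linear_combination e⟩
    rw [Subgroup.coe_mul] at this h'
    rcases hf a with ea | ea <;> rcases hf b with eb | eb <;> rw [ea, eb] at this h'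
    · exact this (Or.inl (zpow_add _ _ _).symm)
    · exact k (h' (Or.inr (by rw [← mul_assoc, cj, zpow_add, mul_assoc])))
    · exact this (Or.inr (by rw [zpow_add, mul_assoc]))
    · exact k (h' (Or.inl (by
        rw [← mul_assoc, mul_assoc u, cj, ← mul_assoc, uu, one_mul, zpow_add])))
  by_contra! hc
  have sq : ∀ n : ℤ, u * x ^ n * (u * x ^ n) = x ^ (4 * i * n) := fun n => by
    rw [← mul_assoc, mul_assoc u, cj, ← mul_assoc, uu, one_mul, ← zpow_add]; congr 1; ring
  refine absurd ((BS.transfer_neg T odd φ (u * x) fun g k hm => ?_).symm.trans (hG.hom_eq_one _ _))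
    (fun e => by have := congrArg Units.val e; norm_num at this)
  rw [← zpow_natCast (-1 : ℂˣ)]
  refine nz (Int.not_odd_iff_even.1 fun ho => ?_)
  have hn := hf ⟨_, hm⟩
  generalize f ⟨_, hm⟩ = n at ho hn
  simp only at hn
  have tt : ∀ s : ℕ, (x ^ (4 * i)) ^ s * (x ^ (4 * i)) ^ s = 1 := fun s => by
    rw [← (Commute.refl _).mul_pow, it.1, one_pow]
  obtain ⟨s, rfl | rfl⟩ := Nat.even_or_odd' k
  · have on : Odd n := by obtain ⟨r, e⟩ := ho; exact ⟨r + s, by push_cast at e; linear_combination e⟩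
    have w2 : g⁻¹ * (u * x) ^ (2 * s) * g * (g⁻¹ * (u * x) ^ (2 * s) * g) = 1 := by
      rw [pow_mul, _root_.sq, sd]
      calc _ = g⁻¹ * ((x ^ (4 * i)) ^ s * (x ^ (4 * i)) ^ s) * g := by group
        _ = 1 := by rw [tt]; simp
    rcases hn with e | e <;> rw [e] at w2
    · exact xx (od 2 n on (by rw [two_mul, zpow_add, w2]))
    · exact t1 (od _ n on (by rw [← sq, w2]))
  · obtain ⟨a, rfl⟩ : ∃ a, n = 2 * a := by
      obtain ⟨r, e⟩ := ho; exact ⟨r + s + 1, by push_cast at e; linear_combination e⟩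
    have cm : Commute (x ^ (4 * i)) (u * x) := by rw [← sd]; exact (Commute.refl _).mul_left (Commute.refl _)
    have w2 : g⁻¹ * (u * x) ^ (2 * s + 1) * g * (g⁻¹ * (u * x) ^ (2 * s + 1) * g) = g⁻¹ * x ^ (4 * i) * g := by
      rw [pow_succ, pow_mul, _root_.sq, sd]
      calc _ = g⁻¹ * ((x ^ (4 * i)) ^ s * (u * x * (x ^ (4 * i)) ^ s) * (u * x)) * g := by group
        _ = _ := by
          rw [← (cm.pow_left s).eq, ← mul_assoc ((x ^ (4 * i)) ^ s), tt, one_mul, sd]
    have g1 : g⁻¹ * x ^ (4 * i) * g ≠ 1 := fun e => t1 (by simpa [mul_assoc, inv_mul_eq_one] using e)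
    rcases hn with e | e <;> rw [e] at w2
    · have gt : g⁻¹ * x ^ (4 * i) * g = x ^ (4 * i) := by
        rw [← zpow_add] at w2
        rw [← w2] at g1
        rw [← w2]
        refine inv_uniq ?_ g1 j2 t1
        rw [two_mul, zpow_add, w2]
        calc _ = g⁻¹ * (x ^ (4 * i) * x ^ (4 * i)) * g := by group
          _ = 1 := by rw [it.1]; simp
      have gc : g * x ^ (4 * i) = x ^ (4 * i) * g := by nth_rw 1 [← gt]; group
      have fin : ∀ b : ℤ, x ^ (4 * b) = x ^ (4 * i) → u * x ≠ g * (x ^ b * x ^ b) * g⁻¹ := fun b e =>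
        hc (x ^ b) g (by rw [← e]; group) (by
          rw [← zpow_add, cj, mul_assoc, ← zpow_add, show (4 * i - 1) * (b + b) = 2 * (4 * i) * b - 2 * b by ring,
            zpow_sub, zpow_mul, j2, one_zpow, one_mul, zpow_add, ← e, ← zpow_add, ← zpow_neg,
            show 4 * b + (b + b) = 4 * b + 4 * b + -(2 * b) by ring, zpow_add, zpow_add, e, it.1, one_mul])
          (Commute.zpow_self x b) gc
      have a4 : x ^ (4 * a) = x ^ (4 * i) := by rw [← gt, ← w2]; group
      rw [pow_succ, pow_mul, _root_.sq, sd] at e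
      obtain ⟨r, rfl | rfl⟩ := Nat.even_or_odd' s
      · rw [pow_mul, _root_.sq, it.1, one_pow, one_mul] at e
        exact fin a a4 (by rw [← zpow_add, ← two_mul, ← e]; group)
      · rw [pow_succ, pow_mul, _root_.sq, it.1, one_pow, one_mul] at e
        refine fin (2 * i + a) (by rw [show 4 * (2 * i + a) = 2 * (4 * i) + 4 * a by ring, zpow_add, j2, one_mul, a4]) ?_
        rw [← zpow_add, show 2 * i + a + (2 * i + a) = 4 * i + 2 * a by ring, zpow_add, ← e, ← mul_assoc g, gc]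
        calc u * x = x ^ (4 * i) * x ^ (4 * i) * (u * x) := by rw [it.1, one_mul]
          _ = _ := by group
    · rw [sq, show 4 * i * (2 * a) = 2 * (4 * i) * a by ring, zpow_mul, j2, one_zpow] at w2
      exact g1 w2.symm

end Cfsg.Agent.H4.P6
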