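import Cfsg.Agent.H4.P6.B

/-! Elements of order three. -/

set_option autoImplicit false
set_option linter.unusedSectionVars false
set_option linter.unusedVariables false
set_option linter.unusedSimpArgs false

namespace Cfsg.Agent.H4.P6

open Subgroup Matrix Cfsg.Agent.H8 Cfsg.Agent.H8.M3 Cfsg.Agent.H9.C2
open scoped Pointwise

universe u

variable {k Γ : Type*} {G : Type u} [Field k] [Group Γ] [Group G] {m : Γ →* M4 k} {π : Γ →* G}
  {B C R : M2 k} {a b g t u o d : Γ} {β : M2 k → M2 k → M4 k} {r : k}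

/-- the two block embeddings -/
structure Bl (β : M2 k → M2 k → M4 k) : Prop where
  mul : ∀ {B C B' C'}, β B C * β B' C' = β (B * B') (C * C')
  sub : ∀ {B C B' C'}, β B C - β B' C' = β (B - B') (C - C')
  add : ∀ {B C B' C'}, β B C + β B' C' = β (B + B') (C + C')
  sm : ∀ (c : k) {B C}, c • β B C = β (c • B) (c • C)
  one : 1 = β 1 1
  zero : β 0 0 = 0
  inj : ∀ {B C B' C'}, β B C = β B' C' ↔ B = B' ∧ C = C'
  det : ∀ {B C}, (β B C).det = B.det * C.det
  ex : ∀ {A}, A * β 1 (-1) = β 1 (-1) * A → ∃ B C, A = β B C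

theorem Bl1 (h2 : (2 : k) ≠ 0) : Bl (bl (k := k)) :=
  ⟨bl_mul, bl_sub, bl_add, fun c => bl_smul c, bl_one.symm, bl_zero, bl_inj, bl_det, bl_ex h2⟩

theorem Bl2 (h2 : (2 : k) ≠ 0) : Bl fun B C => bl (k := k) C B :=
  ⟨bl_mul, bl_sub, bl_add, fun c => bl_smul c, bl_one.symm, bl_zero, bl_inj.trans and_comm,
    bl_det.trans (mul_comm _ _), fun {A} e => by
      obtain ⟨B, C, e⟩ := bl_ex h2 (A := A) (by
        have : bl (1 : M2 k) (-1) = (-1 : k) • bl (-1) 1 := by rw [bl_smul]; simp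
        rw [this, mul_smul_comm, smul_mul_assoc, e])
      exact ⟨C, B, e⟩⟩

theorem sc2 {a b : k} (e : a • (1 : M2 k) = b • 1) : a = b := by
  simpa using congrFun (congrFun e 0) 0

theorem cube2 (e : B * B * B = 1) : (∃ c : k, B = c • 1) ∨ (B.trace ^ 2 = B.det ∧ B.trace * B.det = -1) := by
  have e1 : (B.trace ^ 2 - B.det) • B = (1 + B.trace * B.det) • 1 := by
    have := sq2 B
    rw [sq] at this
    rw [this, sub_mul, smul_mul_assoc, this] at e
    linear_combination (norm := (simp only [smul_mul_assoc, one_mul]; module)) e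
  by_cases f : B.trace ^ 2 - B.det = 0
  · rw [f, zero_smul, ← zero_smul k (1 : M2 k)] at e1
    exact Or.inr ⟨sub_eq_zero.1 f, by linear_combination -sc2 e1⟩
  · exact Or.inl ⟨_, by rw [← inv_smul_smul₀ f B, e1, smul_smul]⟩

theorem cube1 (e : B * B * B = 1) (d : B.det = 1) : B = 1 ∨ B * B + B + 1 = 0 := by
  rcases cube2 e with ⟨c, rfl⟩ | ⟨-, f⟩
  · have e1 : c * c * c = 1 := sc2 (by simpa [smul_smul, mul_assoc] using e)
    rw [det_smul, det_one, Fintype.card_fin] at d
    rw [show c = 1 by linear_combination e1 - c * d, one_smul]; exact Or.inl rfl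
  · right
    rw [← sq, sq2, d, show B.trace = -1 by rw [← f, d, mul_one]]; module

variable [IsAlgClosed k]

theorem omega : ∃ w : k, w * w + w + 1 = 0 := by
  obtain ⟨w, hw⟩ := IsAlgClosed.exists_root (Polynomial.X ^ 2 + Polynomial.X + 1 : Polynomial k) (by
    rw [show (Polynomial.X ^ 2 + Polynomial.X + 1 : Polynomial k).degree = 2 by compute_degree!]; decide)
  exact ⟨w, by simpa [sq] using hw⟩

theorem MB.q3 (h : MB m π) (hβ : Bl β) (e : g ^ 3 = 1) (f : m g = β B C) (hB : B * B + B + 1 = 0)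
    (hC : C * C + C + 1 = 0) : g = 1 := by
  obtain ⟨w, hw⟩ := omega (k := k)
  have n : ∀ B : M2 k, B * B + B + 1 = 0 → (B - w • 1) * (B - (-1 - w) • 1) = 0 := fun B e => by
    have : (w * w + w + 1) • (1 : M2 k) = 0 := by rw [hw, zero_smul]
    linear_combination (norm := (simp only [sub_mul, mul_sub, smul_mul_assoc, mul_smul_comm, one_mul, mul_one]; module)) e - this
  exact h.quad1 g 3 w (-1 - w) (by decide) e (by
    rw [f, hβ.one, hβ.sm, hβ.sm, hβ.sub, hβ.sub, hβ.mul, n B hB, n C hC, hβ.zero])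

theorem MB.c3 (h : MB m π) (hβ : Bl β) (mo : m o = β 1 R) (hR : R * R + R + 1 = 0) (dR : R.det = 1)
    (hr : 3 * r = 1) (e : b ^ 3 = 1) (c : b * o = o * b) : b = 1 ∨ b = o ∨ b = o * o := by
  have R3 : R * R * R = 1 := by linear_combination (norm := noncomm_ring) (R - 1) * hR
  have o3 : o * o * o = 1 := h.inj (by rw [map_mul, map_mul, mo, hβ.mul, hβ.mul, R3, map_one, hβ.one]; simp)
  have τ : β 1 (-1) = (2 * r) • (1 + m o + m o * m o) - 1 := by
    rw [mo, hβ.mul, hβ.one, hβ.add, hβ.add, hβ.sm, hβ.sub, hβ.inj, show 1 + R + R * R = 0 by rw [← hR]; abel]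
    refine ⟨?_, by simp⟩
    have : (3 * r) • (1 : M2 k) = 1 := by rw [hr, one_smul]
    linear_combination (norm := (simp only [one_mul]; module)) (-2 : k) • this
  have key : ∀ b : Γ, b ^ 3 = 1 → b * o = o * b → ∀ B (c : k), m b = β B (c • 1) → b = 1 := fun b e c B s f => by
    have e3 := congrArg m e
    rw [pow_succ, sq, map_mul, map_mul, f, hβ.mul, hβ.mul, map_one, hβ.one, hβ.inj] at e3
    have s3 : s * s * s = 1 := sc2 (by simpa [smul_smul, mul_assoc] using e3.2)
    have dt := h.det b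
    rw [f, hβ.det, det_smul, det_one, Fintype.card_fin] at dt
    have q : ∀ α : k, (B - α • 1) * (B - s • 1) = 0 → b = 1 := fun α z => h.quad1 b 3 α s (by decide) e (by
      rw [f, hβ.one, hβ.sm, hβ.sm, hβ.sub, hβ.sub, hβ.mul, z, sub_self, mul_zero, hβ.zero])
    rcases cube2 e3.1 with ⟨α, rfl⟩ | ⟨f1, f2⟩
    · exact q α (by simp)
    by_cases s1 : s = 1
    · subst s1
      have := h.q3 hβ (g := b * o) (B := B) (C := R) (by
        rw [(show Commute b o from c).mul_pow, e, pow_succ, sq, o3, one_mul]) (by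
        rw [map_mul, f, mo, hβ.mul]; simp) (by
        rw [← sq, sq2, show B.det = 1 by linear_combination dt,
          show B.trace = -1 by linear_combination f2 - B.trace * dt]; module) hR
      have := congrArg m this
      rw [map_mul, f, mo, hβ.mul, map_one, hβ.one, hβ.inj] at this
      rw [h.inj.eq_iff.symm, f, map_one, hβ.one, hβ.inj]
      simpa using this.1
    · refine q 1 ?_
      have d1 : B.det = s := by linear_combination s * dt - B.det * s3
      have s2 : s * s + s + 1 = 0 := mul_left_cancel₀ (sub_ne_zero.2 s1) (by linear_combination s3)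
      have d2 : B.trace = 1 + s := by
        rw [d1] at f2; linear_combination s * s * f2 - B.trace * s3 - s2
      have := sq2 B
      rw [d1, d2, sq] at this
      linear_combination (norm := (simp only [sub_mul, mul_sub, smul_mul_assoc, mul_smul_comm, one_mul, mul_one]; module)) this
  have cm := h.cm.1 c
  obtain ⟨B, C, f⟩ := hβ.ex (A := m b) (by
    rw [τ]; simp only [mul_sub, sub_mul, mul_add, add_mul, mul_smul_comm, smul_mul_assoc, mul_one, one_mul,
      ← mul_assoc, cm]; simp only [mul_assoc, cm])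
  have c' : Commute b o := c
  have f1 : m (b * o) = β B (C * R) := by rw [map_mul, f, mo, hβ.mul, mul_one]
  have f2 : m (b * o * o) = β B (C * R * R) := by rw [map_mul, f1, mo, hβ.mul, mul_one]
  have e1 : (b * o) ^ 3 = 1 := by rw [c'.mul_pow, e, pow_succ, sq, o3, one_mul]
  have c1 : Commute (b * o) o := c'.mul_left (Commute.refl o)
  have e2 : (b * o * o) ^ 3 = 1 := by rw [c1.mul_pow, e1, pow_succ, sq, o3, one_mul]
  have cu : ∀ {b : Γ} {C}, b ^ 3 = 1 → m b = β B C → C * C * C = 1 := fun e f => by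
    have e3 := congrArg m e
    rw [pow_succ, sq, map_mul, map_mul, f, hβ.mul, hβ.mul, map_one, hβ.one, hβ.inj] at e3
    exact e3.2
  rcases cube2 (cu e f) with ⟨s, g0⟩ | g0
  · exact Or.inl (key b e c B s (g0 ▸ f))
  rcases cube2 (cu e1 f1) with ⟨s, g1⟩ | g1
  · have := key _ e1 c1 B s (g1 ▸ f1)
    exact Or.inr (Or.inr (mul_right_cancel (this.trans o3.symm)))
  rcases cube2 (cu e2 f2) with ⟨s, g2⟩ | g2
  · have := key _ e2 (c1.mul_left (Commute.refl o)) B s (g2 ▸ f2)
    exact Or.inr (Or.inl (mul_right_cancel (mul_right_cancel (this.trans o3.symm))))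
  have tr : (C * R * R).trace + (C * R).trace + C.trace = 0 := by
    rw [← trace_add, ← trace_add, show C * R * R + C * R + C = C * (R * R + R + 1) by noncomm_ring, hR,
      mul_zero, trace_zero]
  simp only [det_mul, dR, mul_one] at g1 g2
  exact absurd (by linear_combination (C.det * tr - g0.2 - g1.2 - g2.2) * (-r) - hr) (one_ne_zero (α := k))

theorem conj3 [Finite Γ] {η : Γ} (o3 : o ^ 3 = 1) (o1 : o ≠ 1) (e : η ^ 3 = 1) (e1 : η ≠ 1)
    (h : ∀ b, b ^ 3 = 1 → b * o = o * b → b = 1 ∨ b = o ∨ b = o * o) :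
    ∃ γ, γ * η * γ⁻¹ = o ∨ γ * η * γ⁻¹ = o * o := by
  have : Fact (Nat.Prime 3) := ⟨Nat.prime_three⟩
  have pg : ∀ x : Γ, x ^ 3 = 1 → IsPGroup 3 (zpowers x) := fun x e ⟨y, n, hn⟩ =>
    ⟨1, Subtype.ext (by
      subst hn
      change (x ^ n) ^ 3 ^ 1 = 1
      rw [pow_one, ← zpow_natCast, ← _root_.zpow_mul, mul_comm, _root_.zpow_mul, zpow_natCast, e, _root_.one_zpow])⟩
  obtain ⟨S, hS⟩ := (pg o o3).exists_le_sylow
  obtain ⟨S', hS'⟩ := (pg η e).exists_le_sylow
  obtain ⟨γ, rfl⟩ := MulAction.exists_smul_eq Γ S' S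
  have m1 : γ * η * γ⁻¹ ∈ (γ • S' : Sylow 3 Γ) := smul_mem_pointwise_smul _ (MulAut.conj γ) _ (hS' (mem_zpowers η))
  generalize γ • S' = S at m1 hS
  have m2 : o ∈ S := hS (mem_zpowers o)
  have : Nontrivial S := ⟨⟨o, m2⟩, 1, fun e => o1 (congrArg Subtype.val e)⟩
  have := S.isPGroup'.center_nontrivial
  obtain ⟨n, n0, hn⟩ := (S.isPGroup'.to_subgroup (center S)).nontrivial_iff_card.1 this
  obtain ⟨z, hz⟩ := exists_prime_orderOf_dvd_card' (G := center S) 3 (hn ▸ dvd_pow_self 3 n0.ne')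
  have z3 : z.1.1 ^ 3 = 1 := congrArg (fun x : center S => x.1.1) (orderOf_dvd_iff_pow_eq_one.1 hz.dvd)
  have zc : ∀ x ∈ S, x * z.1.1 = z.1.1 * x := fun x hx => congrArg Subtype.val (mem_center_iff.1 z.2 ⟨x, hx⟩)
  have c : Commute (γ * η * γ⁻¹) o := by
    have := zc _ m1
    rcases h _ z3 (zc o m2).symm with f | f | f
    · rw [show z = 1 from Subtype.ext (Subtype.ext f), orderOf_one] at hz; omega
    · rwa [f] at this
    · rw [f] at this
      have := Commute.mul_right this this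
      rwa [show o * o * (o * o) = o ^ 3 * o by simp only [pow_succ, pow_zero]; group, o3, one_mul] at this
  exact ⟨γ, (h _ (by rw [conj_pow, e]; simp) c).resolve_left fun f => e1 (by simpa [mul_inv_eq_one] using f)⟩

theorem MB.th (h : MB m π) (hβ : Bl β) (mo : m o = β 1 R) (hR : R * R + R + 1 = 0) (dR : R.det = 1)
    (o3 : o ^ 3 = 1) (o1 : o ≠ 1) (md : m d = β 1 (-1)) {η : Γ} (e : η ^ 3 = 1) (e1 : η ≠ 1) :
    ∃ (r : k) (γ : Γ), 3 * r = 1 ∧ m γ = (2 * r) • (1 + m η + m η * m η) - 1 := by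
  have h3 : (3 : k) ≠ 0 := fun z => o1 (h.quad1 o 3 1 1 (by decide) o3 (by
    have : (3 : k) • R = 0 := by rw [z, zero_smul]
    rw [mo, hβ.one, hβ.sm, hβ.sub, hβ.mul, show (R - (1 : k) • 1) * (R - (1 : k) • 1) = 0 by
      linear_combination (norm := (simp only [sub_mul, mul_sub, smul_mul_assoc, mul_smul_comm, one_mul, mul_one]; module)) hR - this]
    simp [hβ.zero]))
  have hr := mul_inv_cancel₀ h3
  generalize (3 : k)⁻¹ = r at hr
  have := h.fin
  obtain ⟨γ, hγ⟩ := conj3 o3 o1 e e1 fun b => h.c3 hβ mo hR dR hr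
  have τ : m d = (2 * r) • (1 + m o + m o * m o) - 1 := by
    rw [md, mo, hβ.mul, hβ.one, hβ.add, hβ.add, hβ.sm, hβ.sub, hβ.inj, show 1 + R + R * R = 0 by rw [← hR]; abel]
    refine ⟨?_, by simp⟩
    have : (3 * r) • (1 : M2 k) = 1 := by rw [hr, one_smul]
    linear_combination (norm := (simp only [one_mul]; module)) (-2 : k) • this
  refine ⟨r, γ⁻¹ * d * γ, hr, ?_⟩
  have τ' : m d = (2 * r) • (1 + m (γ * η * γ⁻¹) + m (γ * η * γ⁻¹) * m (γ * η * γ⁻¹)) - 1 := by
    rcases hγ with f | f <;> rw [f, τ]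
    rw [← map_mul m (o * o), show o * o * (o * o) = o ^ 3 * o by simp only [pow_succ, pow_zero]; group, o3,
      one_mul, map_mul, add_right_comm]
  rw [map_mul, map_mul, τ']
  simp only [mul_sub, sub_mul, mul_add, add_mul, mul_smul_comm, smul_mul_assoc, mul_one, one_mul, ← map_mul]
  simp [mul_assoc]

end Cfsg.Agent.H4.P6
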