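import Cfsg.Agent.H4.P6.C
import Cfsg.Agent.H4.P6.D

/-! The semidihedral case does not occur. -/

set_option autoImplicit false
set_option linter.unusedSectionVars false
set_option linter.unusedVariables false
set_option linter.unusedSimpArgs false

namespace Cfsg.Agent.H4.P6

open Subgroup Matrix Cfsg.Agent.H8 Cfsg.Agent.H8.M3 Cfsg.Agent.H9.C2

universe u

variable {k Γ : Type*} {G : Type u} [Field k] [Group Γ] [Group G] {m : Γ →* M4 k} {π : Γ →* G}
  {g t u h w y : Γ} {a b r : k}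

/-- a self-centralising four-group in its frame -/
structure S6 (m : Γ →* M4 k) (π : Γ →* G) (t u h : Γ) : Prop extends MB m π where
  mt : m t = mx 1 0 0 0 0 1 0 0 0 0 (-1) 0 0 0 0 (-1)
  mu : m u = mx 1 0 0 0 0 (-1) 0 0 0 0 1 0 0 0 0 (-1)
  mh : m h = mx 1 0 0 0 0 0 0 1 0 1 0 0 0 0 1 0
  cB : ∀ g, g * π t = π t * g → g * π u = π u * g → g = 1 ∨ g = π t ∨ g = π u ∨ g = π t * π u
  ct : ∀ g, π g * π t = π t * π g → g * t = t * g

theorem qc {y h t u : G} (tt : t * t = 1) (uu : u * u = 1) (tu : u * t = t * u) (yt : y * t = t * y)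
    (yu : y * u = u * t * y) (h1 : h * t = u * h) (h2 : h * u = t * u * h) :
    y * h * y⁻¹ * h * t = t * (y * h * y⁻¹ * h) ∧ y * h * y⁻¹ * h * u = u * (y * h * y⁻¹ * h) := by
  have l : ∀ {a b c : G}, a * b = c → ∀ x, a * (b * x) = c * x := fun e x => by rw [← e, mul_assoc]
  have i1 : y⁻¹ * t = t * y⁻¹ := by rw [inv_mul_eq_iff_eq_mul, ← mul_assoc, yt, mul_inv_cancel_right]
  have i2 : y⁻¹ * u = u * t * y⁻¹ := by
    rw [inv_mul_eq_iff_eq_mul]; simp only [mul_assoc, l yu, l yt, l tt, one_mul, mul_inv_cancel, mul_one, tt]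
  constructor <;>
    simp only [mul_assoc, h1, h2, l h1, l h2, l i1, l i2, l yt, l yu, l tt, l uu, l tu, one_mul]

namespace S6
variable (S : S6 m π t u h)
include S

theorem tt : t * t = 1 := S.inj (by rw [map_mul, map_one, S.mt]; mxs; gr)
theorem uu : u * u = 1 := S.inj (by rw [map_mul, map_one, S.mu]; mxs; gr)
theorem tu : u * t = t * u := S.cm.2 (by rw [S.mt, S.mu]; mxs)
theorem ht : h * t = u * h := S.inj (by rw [map_mul, map_mul, S.mt, S.mu, S.mh]; mxs)
theorem hu : h * u = t * u * h := S.inj (by simp only [map_mul, S.mt, S.mu, S.mh]; mxs; gr)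
theorem hh : h ^ 3 = 1 := S.inj (by rw [pow_succ, sq, map_mul, map_mul, map_one, S.mh]; mxs)

theorem sg (e1 : π g * π t = π t * π g) (e2 : π g * π u = π u * π g) : ∃ c d e : k, d * d = 1 ∧ e * e = 1 ∧
    m g = mx c 0 0 0 0 (d * c) 0 0 0 0 (e * c) 0 0 0 0 (d * e * c) := by
  rcases S.cB _ e1 e2 with e | e | e | e
  · obtain ⟨c, e⟩ := (S.ker g).1 e
    exact ⟨c, 1, 1, by simp, by simp, by rw [e]; mxs⟩
  · obtain ⟨c, e⟩ := S.eq_iff.1 e
    exact ⟨c, 1, -1, by simp, by simp, by rw [e, S.mt]; mxs; gr⟩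
  · obtain ⟨c, e⟩ := S.eq_iff.1 e
    exact ⟨c, -1, 1, by simp, by simp, by rw [e, S.mu]; mxs; gr⟩
  · obtain ⟨c, e⟩ := S.eq_iff.1 (e.trans (map_mul π t u).symm)
    exact ⟨c, -1, -1, by simp, by simp, by rw [e, map_mul, S.mt, S.mu]; mxs; gr⟩

theorem dg {a b c d : k} (e : m g = mx a 0 0 0 0 b 0 0 0 0 c 0 0 0 0 d) :
    b * b = a * a ∧ c * c = a * a ∧ a * d = b * c := by
  obtain ⟨c', d', e', h1, h2, f⟩ := S.sg (g := g)
    (by rw [← map_mul, ← map_mul, S.cm.2 (by rw [e, S.mt]; mxs; gr)])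
    (by rw [← map_mul, ← map_mul, S.cm.2 (by rw [e, S.mu]; mxs; gr)])
  rw [e] at f; mxs at f
  gr

theorem bk (e : g * t = t * g) : ∃ B C, m g = bl B C :=
  bl_ex S.two (by rw [D1, ← S.mt]; exact S.cm.1 e)

theorem y0 (h1 : π y * π y = π t) (h2 : π y * π u = π u * π t * π y) :
    ∃ (y0 : Γ) (c : k), m y0 = bl 1 !![0, -1; 1, 0] ∧ (m y0 = c • m y ∨ m y0 = c • (m y * m t)) := by
  have yt : π y * π t = π t * π y := by rw [← h1, mul_assoc]
  have pm : ∀ {a b c d : Γ}, a * b = c * d → π a * π b = π c * π d := fun e => by rw [← map_mul, e, map_mul]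
  obtain ⟨q1, q2⟩ := qc (by rw [← map_mul, S.tt, map_one]) (by rw [← map_mul, S.uu, map_one]) (pm S.tu) yt h2
    (pm S.ht) ((pm S.hu).trans (by rw [map_mul]))
  obtain ⟨c, d, e, dd, ee, f⟩ := S.sg (g := y * h * y⁻¹ * h) (by simpa using q1) (by simpa using q2)
  have f1 : m (y * h * y⁻¹ * h) * m h * m h * m y = m y * m h := by
    simp only [← map_mul]; congr 1
    calc _ = y * h * y⁻¹ * h ^ 3 * y := by simp only [pow_succ, pow_zero]; group
      _ = _ := by rw [S.hh]; group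
  obtain ⟨s, f2⟩ := S.eq_iff.1 ((map_mul π y y).trans h1)
  obtain ⟨B, C, f3⟩ := S.bk (S.ct y yt)
  have dt := S.det y
  have dq := S.det (y * h * y⁻¹ * h)
  have rf := S.refl (y * u) s
  rw [map_mul] at f2 rf
  rw [eta_fin_two B, eta_fin_two C, bl_mx] at f3
  generalize B 0 0 = b0, B 0 1 = b1, B 1 0 = b2, B 1 1 = b3, C 0 0 = c0, C 0 1 = c1, C 1 0 = c2, C 1 1 = c3 at f3
  rw [f] at f1 dq
  rw [f3] at f1 f2 dt rf
  rw [S.mh] at f1
  rw [S.mt] at f2
  rw [S.mu] at rf
  mxs at f1 f2 dt dq rf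
  obtain ⟨g1, -, rfl, rfl, -, g6, rfl, g8, -, -, g9, rfl⟩ := f1
  obtain ⟨k1, -, -, k2, k3, -⟩ := f2
  have ss : s * s = 1 := rf (by gr)
  obtain rfl : c = 1 := by grind
  obtain rfl : b3 = b0 := by grind
  obtain rfl : e = -1 := by grind
  obtain ⟨z, hz⟩ := S.sca (b3 ^ 3) (by grind)
  have J : bl (1 : M2 k) !![0, -1; 1, 0] = mx 1 0 0 0 0 1 0 0 0 0 0 (-1) 0 0 1 0 := by rw [one_fin_two, bl_mx]
  rcases mul_self_eq_one_iff.1 dd with rfl | rfl
  · exact ⟨z * (y * t), b3 ^ 3, by simp only [map_mul, hz, f3, S.mt, J]; mxs; gr, Or.inr (by simp [hz])⟩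
  · exact ⟨z * y, b3 ^ 3, by simp only [map_mul, hz, f3, J]; mxs; gr, Or.inl (by simp [hz])⟩

variable [IsAlgClosed k]

/-- the final computation -/
theorem fin6 {γ j : Γ} (ha : 2 * a * a = -1) (hr : 3 * r = 1) (my : m y = bl 1 !![a, a; a, -a])
    (mj : m j = bl 1 !![0, -1; 1, 0]) (mγ : m γ = (2 * r) • (1 + m h + m h * m h) - 1)
    (E4 : ∀ g B C, m g = bl B C → ∃ c : k, C ^ 2 = c • 1 ∨ C ^ 3 = c • 1 ∨ C ^ 4 = c • 1) : False := by
  have two := S.two
  rw [one_fin_two, bl_mx] at my mj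
  have mγ' : m γ = mx 1 0 0 0 0 (-r) (2 * r) (2 * r) 0 (2 * r) (-r) (2 * r) 0 (2 * r) (2 * r) (-r) := by
    rw [mγ, S.mh, sub_eq_iff_eq_add]; mxs; gr
  have e0 : m (y * γ) = mx 1 0 0 0 0 (-r) (2 * r) (2 * r) 0 (4 * a * r) (a * r) (a * r) 0 0 (-a) a := by
    rw [map_mul, my, mγ']; mxs; gr
  have e1 : m (y * γ * y) = mx 1 0 0 0 0 (-r) (4 * a * r) 0 0 (4 * a * r) (-r) 0 0 0 0 1 := by
    rw [map_mul, my, e0]; mxs; gr
  obtain ⟨g, e2⟩ : ∃ g, m g = mx 1 0 0 0 0 1 0 0 0 0 (-r) (4 * a * r) 0 0 (4 * a * r) (-r) :=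
    ⟨h * (y * γ * y) * h * h, by rw [map_mul, map_mul, map_mul, e1, S.mh]; mxs⟩
  obtain ⟨c, hc⟩ := E4 (y * g) 1 !![-2 * r - a * r, -2 * r - a * r; 2 * r - a * r, -2 * r + a * r] (by
    rw [map_mul, my, e2, one_fin_two, bl_mx]; mxs; gr)
  obtain ⟨u1, u2, u3, -⟩ := u2 (B := !![-2 * r - a * r, -2 * r - a * r; 2 * r - a * r, -2 * r + a * r]) (c := c)
    (show 2 * r - a * r ≠ 0 from fun e => one_ne_zero (α := k) (by
      obtain rfl : a = 2 := by linear_combination (-3) * e - (a - 2) * hr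
      linear_combination r * r * ha - (3 * r + 1) * hr))
  simp only [trace_fin_two_of, det_fin_two_of] at u1 u2 u3
  have h7 : (7 : k) = 0 := by
    rcases hc with e | e | e
    · exact absurd (by linear_combination (-3) * u1 e - 4 * hr) (mul_ne_zero two two)
    · linear_combination 9 * u2 e - 9 * r * r * ha - 7 * (3 * r + 1) * hr
    · exact absurd (by linear_combination 27 * u3 e + 216 * r ^ 3 * ha - 8 * (9 * r ^ 2 + 3 * r + 1) * hr)
        (mul_ne_zero (mul_ne_zero two two) two)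
  have := S.dg (g := g * g * u * j) (a := 1) (b := -1) (c := 8 * a * r * r) (d := 8 * a * r * r) (by
    rw [map_mul, map_mul, map_mul, e2, S.mu, mj]; mxs; gr)
  grind

theorem ord3 {q : Γ} {U R : M2 k} (mq : m q = bl U R) (hR : R * R + R + 1 = 0) (dR : R.det = 1) (R1 : R ≠ 1) :
    ∃ (r : k) (γ : Γ), 3 * r = 1 ∧ m γ = (2 * r) • (1 + m h + m h * m h) - 1 := by
  have := S.fin
  have R3 : R ^ 3 = 1 := by rw [pow_succ, sq]; linear_combination (norm := noncomm_ring) (R - 1) * hR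
  have dU : U.det = 1 := by have := S.det q; rwa [mq, bl_det, dR, mul_one] at this
  have pw : ∀ n, m (q ^ n) = bl (U ^ n) (R ^ n) := fun n => by rw [map_pow, mq, bl_pow]
  have : Fact (Nat.Prime 3) := ⟨Nat.prime_three⟩
  obtain ⟨n, hn⟩ : 3 ∣ orderOf q := by
    rw [← orderOf_eq_prime R3 R1]
    refine orderOf_dvd_of_pow_eq_one ?_
    have := pw (orderOf q)
    rw [pow_orderOf_eq_one, map_one, ← bl_one, bl_inj] at this
    exact this.2.symm
  have n0 := orderOf_pos q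
  have o3 : (q ^ n) ^ 3 = 1 := by rw [← pow_mul, mul_comm, ← hn, pow_orderOf_eq_one]
  have o1 : q ^ n ≠ 1 := pow_ne_one_of_lt_orderOf (by omega) (by omega)
  have mo := pw n
  have d1 : (U ^ n).det = 1 := by rw [det_pow, dU, one_pow]
  have d2 : (R ^ n).det = 1 := by rw [det_pow, dR, one_pow]
  generalize q ^ n = o, U ^ n = U, R ^ n = R at o3 o1 mo d1 d2
  have e3 := congrArg m o3
  rw [pow_succ, sq, map_mul, map_mul, mo, bl_mul, bl_mul, map_one, ← bl_one, bl_inj] at e3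
  have h1 : h ≠ 1 := fun e => by have := S.mh; rw [e, map_one] at this; mxs at this; simp at this
  rcases cube1 e3.1 d1 with rfl | f <;> rcases cube1 e3.2 d2 with rfl | f'
  · exact absurd (S.inj (by rw [mo, bl_one, map_one])) o1
  · exact S.th (Bl1 S.two) mo f' d2 o3 o1 (S.mt.trans D1.symm) S.hh h1
  · obtain ⟨z, hz⟩ := S.sca (-1) (by ring)
    exact S.th (Bl2 S.two) mo f d1 o3 o1 (d := z * t) (by
      rw [map_mul, hz, S.mt, ← D1, smul_mul_assoc, one_mul, bl_smul]; simp) S.hh h1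
  · exact absurd (S.q3 (Bl1 S.two) o3 mo f f') o1

set_option maxHeartbeats 800000 in
theorem main {p : ℕ} [Fact p.Prime] [CharP k p] {x : Γ} (h1 : π w * π w * (π w * π w) = π t)
    (h2 : π w * π w * π u = π u * π t * (π w * π w)) (h3 : π w * π x = π x * π w)
    (h4 : π g * π t = π t * π g) (h5 : π u * π x = π g * (π w * π w) * (π g)⁻¹) : False := by
  have two := S.two
  rw [← map_mul] at h1 h2
  obtain ⟨j, c, mj, hj⟩ := S.y0 h1 h2
  obtain ⟨W0, W, mw⟩ := S.bk (S.ct w (by rw [← h1, map_mul]; group))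
  have gt := S.ct g h4
  obtain ⟨B, C, mg⟩ := S.bk gt
  obtain ⟨B', C', mg'⟩ := S.bk (g := g⁻¹) (Commute.inv_left gt)
  have i1 := mul_inv' m g
  have i2 := inv_mul' m g
  rw [mg, mg', bl_mul, ← bl_one, bl_inj] at i1 i2
  obtain ⟨J, hJ⟩ : ∃ J : M2 k, J = !![0, -1; 1, 0] := ⟨_, rfl⟩
  rw [← hJ] at mj
  obtain ⟨c', hc'⟩ : ∃ c' : k, J = c' • (W * W) := by
    rw [mj, map_mul, mw, S.mt, ← D1, bl_mul, bl_mul, bl_smul, bl_smul, bl_inj, bl_inj] at hj
    rcases hj with e | e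
    exacts [⟨c, e.2⟩, ⟨-c, by simpa using e.2⟩]
  have cj : ∀ {x X Y}, m x = bl X Y → m (g * x * g⁻¹) = bl (B * X * B') (C * Y * C') := fun e => by
    rw [map_mul, map_mul, mg, mg', e, bl_mul, bl_mul]
  have m1 := cj mj
  rw [mul_one, i1.1] at m1
  obtain ⟨M, hM⟩ : ∃ M, M = C * J * C' := ⟨_, rfl⟩
  rw [← hM] at m1
  have JJ : J * J = -1 := by rw [hJ]; ext i j; fin_cases i <;> fin_cases j <;> simp
  have MM : M * M = -1 := by
    rw [hM, show C * J * C' * (C * J * C') = C * (J * (C' * C) * J) * C' by noncomm_ring, i2.2, mul_one, JJ]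
    simp [i1.2]
  have pt : π t * π t = 1 := by rw [← map_mul, S.tt, map_one]
  have pu : π u * π u = 1 := by rw [← map_mul, S.uu, map_one]
  have pj : π j = π w * π w ∨ π j = π w * π w * π t := hj.imp (fun e => (S.eq_iff.2 ⟨c, e⟩).trans (map_mul _ _ _))
    fun e => (S.eq_iff.2 ⟨c, e.trans (congrArg _ (map_mul m _ _).symm)⟩).trans (by rw [map_mul, map_mul])
  have wt : Commute (π w) (π t) := by rw [← h1, map_mul]; exact ((Commute.refl _).mul_right (Commute.refl _)).mul_right ((Commute.refl _).mul_right (Commute.refl _))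
  have xw : Commute (π x) (π w) := h3.symm
  have xt : Commute (π x) (π t) := by rw [← h1, map_mul]; exact (xw.mul_right xw).mul_right (xw.mul_right xw)
  have px : π (u * (g * j * g⁻¹)) = π x ∨ π (u * (g * j * g⁻¹)) = π x * π t := by
    simp only [map_mul, map_inv]
    refine pj.imp (fun e => ?_) fun e => ?_
    · rw [e, ← h5, ← mul_assoc, pu, one_mul]
    · rw [e, ← mul_assoc (π g), mul_assoc _ (π t), (show Commute (π g) (π t) from h4).inv_left.eq.symm,
        ← mul_assoc (π g * _), ← h5, ← mul_assoc, ← mul_assoc, pu, one_mul]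
  obtain ⟨s, hs⟩ := S.eq_iff.1 (show π (u * (g * j * g⁻¹) * j) = π (j * (u * (g * j * g⁻¹))) by
    rw [map_mul, map_mul π j]
    have a1 : Commute (π x) (π j) := by
      rcases pj with e | e <;> rw [e]
      exacts [xw.mul_right xw, (xw.mul_right xw).mul_right xt]
    have a2 : Commute (π t) (π j) := by
      rcases pj with e | e <;> rw [e]
      exacts [wt.symm.mul_right wt.symm, (wt.symm.mul_right wt.symm).mul_right (Commute.refl _)]
    rcases px with e | e <;> rw [e]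
    exacts [a1, a1.mul_left a2])
  have mu : m u = bl !![1, 0; 0, -1] !![1, 0; 0, -1] := S.mu
  rw [eta_fin_two M] at MM hM m1
  generalize M 0 0 = a, M 0 1 = b, M 1 0 = b', M 1 1 = a' at MM hM m1
  clear M
  have m1' := m1
  have mj' := mj
  rw [one_fin_two, bl_mx] at m1'
  rw [hJ, one_fin_two, bl_mx] at mj'
  rw [map_mul, map_mul, map_mul m j, map_mul m u, m1', mj', S.mu] at hs
  mxs at hs
  obtain ⟨rfl, rfl⟩ : b' = b ∧ a' = -a := by gr
  have ab : a * a + b' * b' = -1 := by simpa [mul_apply] using congrFun (congrFun MM 0) 0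
  have b0 : b' ≠ 0 := fun e => by
    rw [e] at m1'
    have := S.dg m1'
    grind
  have a0 : a ≠ 0 := fun e => by
    have := S.dg (g := j * (g * j * g⁻¹)) (a := 1) (b := 1) (c := -b') (d := b') (by
      rw [map_mul, m1', mj', e]; mxs; gr)
    grind
  rcases S.dk (p := p) (S.mt.trans D1.symm) with e | ⟨n, hn, E4⟩
  · have := e _ _ _ _ _ _ mw (cj mw)
    rw [show C * W * C' * (C * W * C') = C * (W * (C' * C) * W) * C' by noncomm_ring, i2.2, mul_one] at this
    have f : J * (C * J * C') = C * J * C' * J := by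
      rw [hc']; simp only [smul_mul_assoc, mul_smul_comm, this]
    rw [← hM, hJ] at f
    have := congrFun (congrFun f 0) 0
    simp [mul_apply] at this
    grind
  obtain rfl : n = 4 := by
    have ns : ∀ c : k, J ≠ c • 1 := fun c e => by simpa [hJ] using congrFun (congrFun e 1) 0
    have c0 : c' ≠ 0 := by rintro rfl; exact ns 0 (by simpa using hc')
    have W4 : W ^ 4 = (-(c'⁻¹ * c'⁻¹)) • 1 := by
      have : W * W = c'⁻¹ • J := by rw [hc', inv_smul_smul₀ c0]
      rw [show W ^ 4 = W * W * (W * W) by noncomm_ring, this, smul_mul_smul_comm, JJ]; simp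
    have nw : ∀ c d : k, d ≠ 0 → d • W ≠ c • 1 := fun c d d0 e => ns (c' * (d⁻¹ * c * (d⁻¹ * c))) (by
      rw [hc', ← inv_smul_smul₀ d0 W, e]; simp [smul_smul, mul_assoc])
    have n3 : ∀ c : k, W ^ 3 ≠ c • 1 := fun c e => nw (-(c'⁻¹ * c'⁻¹)) c (by
      rintro rfl
      rw [pow_succ, e, zero_smul, zero_mul, ← zero_smul k (1 : M2 k)] at W4
      simpa [c0] using sc2 W4) (by rw [← W4, pow_succ W 3, e]; simp)
    obtain ⟨c, e | e | e⟩ := E4 w _ _ mw
    · exact absurd (by rw [hc', ← sq, e, smul_smul]) (ns (c' * c))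
    · exact absurd e (n3 c)
    rcases hn with rfl | rfl | rfl
    · exact absurd e (n3 c)
    · rfl
    · exact absurd (by rw [← e, pow_succ W 4, W4]; simp) (nw c (-(c'⁻¹ * c'⁻¹)) (by simpa using c0))
  have mx' : m (u * (g * j * g⁻¹)) = bl !![1, 0; 0, -1] !![a, b'; -b', a] := by
    rw [map_mul, m1', S.mu, bl_mx]; mxs; gr
  generalize u * (g * j * g⁻¹) = x' at mx'
  have ha : 2 * a * a = -1 := by
    obtain ⟨c, hc⟩ := E4 _ _ _ mx'
    obtain ⟨u1, -, u3, -⟩ := u2 (B := !![a, b'; -b', a]) (c := c) (show -b' ≠ 0 by simpa using b0)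
    simp only [trace_fin_two_of, det_fin_two_of] at u1 u3
    rcases hc with e | e | e
    · have := u1 e; grind
    · have f : m (x' ^ 3) = mx 1 0 0 0 0 (-1) 0 0 0 0 c 0 0 0 0 c := by
        rw [map_pow, mx', bl_pow, e]; simp [bl, pow_succ]
      have := S.dg f
      grind
    · exact mul_left_cancel₀ (mul_ne_zero (mul_ne_zero two two) a0) (by linear_combination u3 e + 4 * a * ab)
  obtain ⟨r, γ, hr, mγ⟩ := S.ord3 (q := x' * (g * x' * g⁻¹)) (U := !![1, 0; 0, -1] * (B * !![1, 0; 0, -1] * B'))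
    (R := !![a * a + b', a * b'; -(a * b'), a * a - b']) (by
      rw [map_mul, cj mx', mx', bl_mul, show !![a, b'; -b', a] = a • 1 - b' • J by
        rw [hJ]; ext i j; fin_cases i <;> fin_cases j <;> simp, mul_sub C, sub_mul (C * _), mul_smul_comm,
        mul_smul_comm, smul_mul_assoc, smul_mul_assoc, mul_one, i1.2, ← hM, hJ]
      congr 1
      ext i j; fin_cases i <;> fin_cases j <;> simp [mul_apply] <;> grind)
    (by ext i j; fin_cases i <;> fin_cases j <;> simp [mul_apply] <;> grind) (by rw [det_fin_two_of]; grind)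
    (fun e => by simpa [a0, b0] using congrFun (congrFun e 0) 1)
  rw [hJ] at mj
  rcases mul_self_eq_mul_self_iff.1 (show b' * b' = a * a by grind) with rfl | rfl
  · exact S.fin6 ha hr m1 mj mγ E4
  · exact S.fin6 (y := u * (g * j * g⁻¹) * u) ha hr (by
      rw [map_mul, map_mul, m1', S.mu, one_fin_two, bl_mx]; mxs; gr) mj mγ E4

end S6

open Module Cfsg.Agent.H6.L4 Cfsg.Agent.LD.F4 in
/-- (P6) -/
theorem p6 {V : Type*} [AddCommGroup V] [Module k V] [FiniteDimensional k V] {P : Subgroup (End k V)ˣ}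
    {π : P →* G} {p : ℕ} [IsAlgClosed k] [Fact p.Prime] [CharP k p] (H : Beta P π) {t u x h : G}
    (f : F1 (Yc π) t u) (h1 : h * t * h⁻¹ = u) (h2 : h * u * h⁻¹ = t * u)
    (cB : ∀ g, g * t = t * g → g * u = u * g → g = 1 ∨ g = t ∨ g = u ∨ g = t * u) {T : Subgroup G}
    (odd : Odd T.index) (p2 : IsPGroup 2 T) (hx : x ∈ T) (hT : ∀ g ∈ T, g ∈ zpowers x ∨ u * g ∈ zpowers x)
    (hu : u ∈ T) (ht : t ∈ zpowers x) (sd : u * x * (u * x) = t) : False := by
  have := H.finG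
  have tt := f.it.1
  have uu := f.iu.1
  have tu : u * t = t * u := by
    obtain ⟨a, b, rfl, rfl, e⟩ := f.y
    rw [← map_mul, ← map_mul, show a * b = b * a from Subtype.ext e]
  have l : ∀ {a b c : G}, a * b = c → ∀ x, a * (b * x) = c * x := fun e x => by rw [← e, mul_assoc]
  have k1 := mul_inv_eq_iff_eq_mul.1 h1
  have k2 := mul_inv_eq_iff_eq_mul.1 h2
  have h3 : h ^ 3 = 1 := by
    have c : ∀ a, h ^ 3 = a → h * a * h⁻¹ = a := fun a e => by rw [← e]; group
    rcases cB (h ^ 3) (by simp only [pow_succ, pow_zero, one_mul, mul_assoc, k1, k2, l k1, l k2, l tt, l uu, l tu])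
      (by simp only [pow_succ, pow_zero, one_mul, mul_assoc, k1, k2, l k1, l k2, l tt, l uu, l tu]) with e | e | e | e
    · exact e
    · exact absurd ((c _ e).symm.trans h1) f.ne
    · exact absurd (by simpa using h2.symm.trans (c _ e)) f.it.2
    · have := c _ e
      rw [← conj_mul, h1, h2, ← mul_assoc, tu, mul_assoc, uu, mul_one] at this
      exact absurd (by simpa using this) f.iu.2
  obtain ⟨B, t, u, h, rfl, rfl, rfl, mt, mu, mh⟩ := frame H f h1 h2 h3
  have M := mb H B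
  have S : S6 (mat P B) π t u h := ⟨M, mt, mu, mh, cB, fun g => M.cen
    (M.inj (by rw [map_mul, map_one, mt]; mxs; gr)) (M.cm.2 (by rw [mt, mu]; mxs)) odd hT ht⟩
  obtain ⟨w, g, e1, e2, e3, e4, e5⟩ := sdG H.sn f.it f.iu (fun g a b => by
    rcases cB g a b with rfl | rfl | rfl | rfl
    exacts [one_mul _, tt, uu, by simp only [mul_assoc, l tu, l tt, uu, mul_one, tt]]) odd p2 hx hT ht sd
  obtain ⟨w, rfl⟩ := H.surj w
  obtain ⟨g, rfl⟩ := H.surj g
  obtain ⟨x, rfl⟩ := H.surj x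
  exact S.main (p := p) e1 e2 e3 e4 e5

end Cfsg.Agent.H4.P6

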